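import Mathlib
import Cfsg.Prelude.Def_Sporadic_a

theorem Eqns.E_Cfsg_pointBlockRel_eq_def : type_of% @Cfsg.pointBlockRel.eq_def := @Cfsg.pointBlockRel.eq_def
theorem Eqns.E_Cfsg_pointBlockRel_e1 : type_of% @Cfsg.pointBlockRel.eq_1 := @Cfsg.pointBlockRel.eq_1
theorem Eqns.E_Cfsg_pointBlockRel_e2 : type_of% @Cfsg.pointBlockRel.eq_2 := @Cfsg.pointBlockRel.eq_2
theorem Eqns.E_Cfsg_pointBlockRel_e3 : type_of% @Cfsg.pointBlockRel.eq_3 := @Cfsg.pointBlockRel.eq_3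
theorem Eqns.E_Cfsg_pointBlockRel_e4 : type_of% @Cfsg.pointBlockRel.eq_4 := @Cfsg.pointBlockRel.eq_4
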